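import Cfsg.Agent.H691.StExt
import Cfsg.Agent.H707.GalTrace
import Cfsg.Agent.H979.LieSplit
import Cfsg.Agent.H770.CY.Defs
import Cfsg.Agent.H687.Good
import Cfsg.Agent.Characters.GaloisBasic

/-!
# S4829, `p = 2` : the row `Row2` of the groups of Lie type in odd characteristic (helper802)

* `row2_of_hasSplit` : a group with a split `(B,N)`-pair of odd characteristic: the Steinberg character;
* `row2_lie_odd` : `IsLieTypeChar p K`, `p` odd, gives `Row2 K`.
-/

set_option autoImplicit false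

namespace Cfsg.Agent.H802.R2

open Cfsg Cfsg.Agent.LieExceptional.BNPairCore Cfsg.Agent.Tits.Core Cfsg.Agent.Tits.Core.Bldg Cfsg.Agent.Tits.OfBN
  Cfsg.Agent.Schreier.BNSch Cfsg.Agent.Tits.OppRes Cfsg.Agent.FixBN.OfBN Cfsg.Agent.FixBN Representation
  Cfsg.Agent.H691.StExt

/-- **The Steinberg character extends** to `Aut K` and is rational on `K`. -/
theorem exists_ext_rat {K : Type*} [Group K] [Finite K] {A : Type*} [Group A] {p : ℕ} [Fact p.Prime]
    (h : FixBN.HasSplit p K) (f : K →* A) (ψ : A →* MulAut K) (hψ : ∀ k, ψ (f k) = MulAut.conj k) :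
    ∃ χ : A → ℂ, IsIrrCharacter A χ ∧ IsIrrCharacter K (χ ∘ f) ∧ (∀ k, ∃ q : ℚ, χ (f k) = q) ∧
      ∀ Q : Sylow p K, χ 1 = Nat.card Q := by
  classical
  obtain ⟨P, U, -, S⟩ := h
  have hN : ((P.B ⊓ P.N).subgroupOf P.N).Normal := Tits.OfBN.normal_subgroupOf P
  obtain ⟨M, cs, hcs⟩ := S0320.result P
  have Sy := FixBN.OfBN.sys (Equiv.refl P.S) cs hcs S
  have : Fintype (K ⧸ P.B) := Fintype.ofFinite _
  let act : MulAction A (K ⧸ P.B) :=
    { smul := fun a x => th S (ψ a) x
      one_smul := by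
        intro x
        show th S (ψ 1) x = x
        rw [map_one, ← map_one (MulAut.conj : K →* MulAut K), th_conj, one_smul]
      mul_smul := by
        intro a b x
        show th S (ψ (a * b)) x = th S (ψ a) (th S (ψ b) x)
        rw [map_mul]
        exact th_mul S (ψ a) (ψ b) x }
  have hsmul : ∀ (k : K) (x : K ⧸ P.B), f k • x = k • x := by
    intro k x
    show th S (ψ (f k)) x = k • x
    rw [hψ, th_conj]
  have hpan : ∀ (a : A) (i : P.S) (x : K ⧸ P.B), ∃ j, ∀ y,
      y ∈ (bldg P (Equiv.refl P.S) cs hcs).Pan i x ↔ a • y ∈ (bldg P (Equiv.refl P.S) cs hcs).Pan j (a • x) :=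
    fun a i x => th_pan S (Equiv.refl P.S) cs hcs (ψ a) i x
  set ρ := repA (bldg P (Equiv.refl P.S) cs hcs) (A := A) hpan with hρ
  have hrestr : (ρ.comp f : Representation ℂ K _) = H163.Steinberg.rep (G := K) Sy.iso := by
    refine MonoidHom.ext fun k => LinearMap.ext fun v => Subtype.ext ?_
    funext x
    change (v : _ → ℂ) ((f k)⁻¹ • x) = (v : _ → ℂ) (k⁻¹ • x)
    rw [← map_inv, hsmul]
  obtain ⟨c0⟩ : Nonempty (K ⧸ P.B) := ⟨QuotientGroup.mk 1⟩
  have hopp : ∀ c, ∃ d, (bldg P (Equiv.refl P.S) cs hcs).Opp c d := fun c => Tits.Opp.exists_opp _ c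
  have hirr := H163.Steinberg.isIrreducible Sy (fun x y => MulAction.exists_smul_eq K x y) c0 (hopp c0)
  have hirrA : ρ.IsIrreducible := isIrreducible_of_restrict ρ f (by rw [hrestr]; exact hirr)
  have hchar : ρ.character ∘ f = (H163.Steinberg.rep (G := K) Sy.iso).character := by
    rw [← hrestr]
    rfl
  refine ⟨ρ.character, Characters.Core.isIrrCharacter_of_rep _ hirrA, ?_, fun k => ?_, fun Q => ?_⟩
  · rw [hchar]
    exact Characters.Core.isIrrCharacter_of_rep _ hirr
  · obtain ⟨q, hq⟩ := H707.GalTrace.rat_character _ Sy k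
    refine ⟨q, ?_⟩
    rw [← hq]
    exact congrFun hchar k
  · obtain ⟨c, hc⟩ := Sy.exists_fix Q Q.isPGroup'
    have hQ : (Q : Subgroup K) = Sy.U c :=
      (Q.is_maximal' (Sy.isP c) (Sy.max c Q Q.isPGroup' hc)).symm
    have h1 := congrFun hchar 1
    rw [Function.comp_apply, map_one] at h1
    rw [h1, H163.Steinberg.character_apply Sy c (hopp c) 1 (one_mem _), if_pos rfl, ← hQ]

theorem dvd_of_hasSplit {p : ℕ} [hp : Fact p.Prime] {K : Type*} [Group K] [Finite K] (h : FixBN.HasSplit p K) :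
    p ∣ Nat.card K := by
  obtain ⟨P, U, ⟨s, hs⟩, hU⟩ := h
  obtain ⟨V, hV⟩ := hU.node s hs
  obtain ⟨u, hu, huV⟩ := hV.ne
  have hu1 : u ≠ 1 := fun h => huV (h ▸ one_mem V)
  obtain ⟨k, hk⟩ := (IsPGroup.iff_orderOf.1 hU.isP) ⟨u, hu⟩
  rw [Subgroup.orderOf_mk] at hk
  have h1 : k ≠ 0 := by
    rintro rfl
    rw [pow_zero, orderOf_eq_one_iff] at hk
    exact hu1 hk
  exact (hk ▸ dvd_pow_self p h1 : p ∣ orderOf u).trans (orderOf_dvd_natCard u)

/-- **the witness**: a group with a split `(B,N)`-pair of odd characteristic -/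
theorem row2_of_hasSplit {p : ℕ} [hp : Fact p.Prime] (hp2 : p ≠ 2) {K : Type*} [Group K] [Finite K]
    (h : FixBN.HasSplit p K) : H770.CY.Row2 K := by
  intro B _
  have hd : p ∣ Nat.card K := dvd_of_hasSplit h
  obtain ⟨χ, h1, h2, h3, h4⟩ := exists_ext_rat h (MulAut.conj : K →* MulAut K) (MonoidHom.id _) (fun k => rfl)
  have Q : Sylow p K := default
  have h5 : (χ ∘ (MulAut.conj : K →* MulAut K)) 1 = ((Nat.card Q : ℕ) : ℂ) := by
    rw [Function.comp_apply, map_one]
    exact h4 Q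
  have h6 : charDegree (χ ∘ (MulAut.conj : K →* MulAut K)) = p ^ (Nat.card K).factorization p := by
    rw [H687.charDegree_of_eq h5, Q.card_eq_multiplicity]
  have h7 : 1 < p ^ (Nat.card K).factorization p :=
    one_lt_pow₀ hp.out.one_lt (hp.out.factorization_pos_of_dvd Nat.card_pos.ne' hd).ne'
  refine ⟨⟨_, h2⟩, ?_, ?_, ?_, ?_⟩
  · intro h8
    have h9 : charDegree (χ ∘ (MulAut.conj : K →* MulAut K)) = 1 := by
      apply H687.charDegree_of_eq
      show (χ ∘ (MulAut.conj : K →* MulAut K)) 1 = _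
      have h10 := congrFun h8 1
      rw [Nat.cast_one]
      exact h10
    rw [h6] at h9
    omega
  · show Odd (charDegree (χ ∘ (MulAut.conj : K →* MulAut K)))
    rw [h6]
    exact (hp.out.odd_of_ne_two hp2).pow
  · intro k hk _ g
    exact (Characters.GaloisBasic.exists_rat_iff (Characters.Core.isIrr_isCharacter h2) g).1 (h3 g) k hk
  · intro b _ x
    show χ (MulAut.conj (b x)) = χ (MulAut.conj x)
    have h8 : MulAut.conj (b x) = b * MulAut.conj x * b⁻¹ := by
      ext y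
      simp
    rw [h8]
    exact Characters.Core.isIrr_isClassFunction h1 (MulAut.conj x) b

/-- **The rows of Lie type in odd characteristic** -/
theorem row2_lie_odd {p : ℕ} (hp : p.Prime) (hp2 : p ≠ 2) {K : Type*} [Group K] [Finite K] [IsSimpleGroup K]
    (h : IsLieTypeChar p K) : H770.CY.Row2 K := by
  have : Fact p.Prime := ⟨hp⟩
  exact row2_of_hasSplit hp2 (H979.LieSplit.hasSplit_of_isLieTypeChar hp h)

theorem rowFor2_lie_odd : H770.CY.RowFor2 (fun X _ => ∃ p : ℕ, p.Prime ∧ p ≠ 2 ∧ IsLieTypeChar p X) := by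
  intro X _ _ _ _ h
  obtain ⟨p, hp, hp2, hX⟩ := h
  exact row2_lie_odd hp hp2 hX

end Cfsg.Agent.H802.R2
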