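import Cfsg.Agent.H226.R2.Base
import Cfsg.Agent.H776.CY.Congr
import Cfsg.Agent.S1680
import Cfsg.Agent.KFacts.SuzRho
import Cfsg.Agent.KFacts.SuzOut
import Cfsg.Agent.H997.OutSuz

/-!
# S4829, `p = 2`, the row `Suz` (helper802)

The outer automorphism `ρ` of `KFacts.SuzRho` fixes the generators `a, ..., e` and swaps `f, g`; `⟨a, ..., f⟩ = G₂(4)` is
the stabiliser of the point `0` of the rank three action of degree `1782`, and `a, ..., e, g` fix the point `1575`. So `ρ`
permutes the conjugates of `G₂(4)` and fixes the permutation character.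
-/

set_option autoImplicit false
set_option maxRecDepth 100000
set_option exponentiation.threshold 4000

namespace Cfsg.Agent.H802.R2.Suz

open Cfsg Cfsg.Spor Cfsg.Agent.Lib.PermNet Cfsg.Agent.Lib.PermNetOrbit Cfsg.Agent.SporadicRecognition.SuzPhi
  Cfsg.Agent.SporadicRecognition.SuzBound Cfsg.Agent.SporadicRecognition.SuzOrder Cfsg.Agent.KFacts.SuzRho
  Cfsg.Agent.H770.CY

noncomputable def ws6' : List (List Net) := [wd [.a], wd [.b], wd [.c], wd [.d], wd [.e], wd [.g]]

theorem ws6'_wd : ∀ w ∈ ws6', ∃ u, wd u = w := by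
  intro w hw
  simp only [ws6', List.mem_cons, List.not_mem_nil, or_false] at hw
  rcases hw with rfl | rfl | rfl | rfl | rfl | rfl <;> exact ⟨_, rfl⟩

/-- the image of the point stabiliser under `ρ` fixes the point `1575` -/
theorem fix_rho : ∀ x ∈ Subgroup.closure S6, φ (rho x) 1575 = 1575 := by
  have h : Subgroup.closure S6 ≤ (stabL φ [1575]).comap (rho : Suz →* Suz) := by
    rw [Subgroup.closure_le]
    rintro _ ⟨w, hw, rfl⟩ q hq
    change φ (rho (el w)) q = q
    rw [rho_el, φ_el]
    refine fixAllB_spec (ws := ws6') (qs := [1575]) (wsok ws6'_wd) (by decide +kernel) q hq _ ?_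
    simp only [List.mem_cons, List.not_mem_nil, or_false] at hw
    rcases hw with rfl | rfl | rfl | rfl | rfl | rfl <;> simp [ws6', sw]
  intro x hx
  exact h hx 1575 (by simp)

theorem index_S6 : (Subgroup.closure S6).index = 1782 := S1680.S6_main.1

/-- the point stabiliser -/
theorem mem_S6_of_fix {x : Suz} (h : φ x 0 = 0) : x ∈ Subgroup.closure S6 := by
  have hne : (Subgroup.closure S6).index ≠ 0 := Subgroup.index_ne_zero_of_finite
  have hle : (Subgroup.closure S6).index ≤ 1782 := index_S6.le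
  exact ((index_eq_of_action (Subgroup.closure S6) φ 1782 fix_S6 S1680.trans_point hle hne).2.1 x).1 h

theorem exists_conj : ∃ s : Suz, (Subgroup.closure S6).map (rho : Suz →* Suz) =
    (Subgroup.closure S6).map (MulAut.conj s).toMonoidHom := by
  obtain ⟨s, hs⟩ := S1680.trans_point 1575 (by norm_num)
  refine ⟨s, ?_⟩
  apply Subgroup.eq_of_le_of_card_ge
  · rintro _ ⟨x, hx, rfl⟩
    change rho x ∈ _
    refine ⟨s⁻¹ * rho x * s, mem_S6_of_fix ?_, ?_⟩
    · rw [map_mul, map_mul, Equiv.Perm.mul_apply, Equiv.Perm.mul_apply, hs, fix_rho x hx, map_inv]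
      exact Equiv.Perm.inv_eq_iff_eq.2 hs.symm
    · change s * (s⁻¹ * rho x * s) * s⁻¹ = rho x
      group
  · rw [Subgroup.card_map_of_injective (f := (rho : Suz →* Suz)) rho.injective,
      Subgroup.card_map_of_injective (f := (MulAut.conj s).toMonoidHom) (MulAut.conj s).injective]

/-- **the row** -/
theorem row2_suz : Row2 Suz := by
  classical
  have := Fintype.ofFinite Suz
  obtain ⟨s, hs⟩ := exists_conj
  obtain ⟨hi, c₁, c₂, h1, h2⟩ := S1680.S6_main
  have heven : Even (Nat.card (Suz ⧸ Subgroup.closure S6)) := by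
    change Even (Subgroup.closure S6).index
    rw [hi]
    decide
  have h3 := H226.R2.ratInv_of_rank_three (S := Suz) (Suz ⧸ Subgroup.closure S6) heven
    (H707.Rank.card_orbits_three _ h1 h2 (by norm_num) (by norm_num) (by norm_num) (by rw [hi])).le
  refine H226.R2.row2_of_odd_index (Γ := (MulAut.conj : Suz →* MulAut Suz).range ⊔ Subgroup.zpowers rho) ?_
    (h3.mono (sup_le ?_ ?_))
  · rw [H226.R2.sup_zpowers_eq_top ?_ H997.OutSuz.rho_outer, Subgroup.index_top]
    · exact odd_one
    · rcases KFacts.SuzOut.index_eq with h | h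
      · rw [h]
        exact one_dvd 2
      · rw [h]
  · apply H226.R2.inner_le_stab
    obtain ⟨ψ, hψ⟩ : ∃ ψ : Suz → ℂ,
      ψ = fun g => (Nat.card (MulAction.fixedBy (Suz ⧸ Subgroup.closure S6) g) : ℂ) - 1 := ⟨_, rfl⟩
    obtain ⟨h4, -, -, -, -⟩ := H707.Rank.norm_permChar (G := Suz) (Suz ⧸ Subgroup.closure S6) hψ
    rw [← hψ]
    obtain ⟨α, β, hα, hβ, rfl⟩ := h4
    intro g x
    rw [Pi.sub_apply, Pi.sub_apply, Characters.Core.isCharacter_isClassFunction hα g x,
      Characters.Core.isCharacter_isClassFunction hβ g x]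
  · rw [Subgroup.zpowers_le]
    exact H226.R2.mem_stab_coset _ hs 1

theorem rowFor2_suz : RowFor2 (fun X _ => Spor.IsoSuz X) := by
  intro X _ _ _ _ hX
  obtain ⟨e⟩ := hX
  exact H776.CY.Row2.congr e row2_suz

end Cfsg.Agent.H802.R2.Suz
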